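import Cfsg.Agent.Lib.Helper33.KS.Defs

/-!
# Piece P7 of helper33's symmetric amalgam farm (helper23)
-/

set_option autoImplicit false

namespace Cfsg.Agent.Lib.Helper23.KS

open Subgroup MulAction Cfsg.Agent.Lib.Helper33.KS
open Cfsg.Agent.Lib.Helper22 (conjS mem_conjS conjS_mem conjS_mul conjS_one)

variable {G : Type*} [Group G] {V : Type*} [MulAction G V] {adj : V → V → Prop}
  {Q Z : V → Subgroup G}

/-- elements of the stabilizer normalize `Z A`. -/
theorem conj_mem_Z (hC : Cub adj Q Z) {A : V} {g a : G} (hg : g ∈ St G A) (ha : a ∈ Z A) :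
    g * a * g⁻¹ ∈ Z A := by
  have h1 : Z (g • A) = conjS g (Z A) := hC.Z_smul g A
  have h2 : g • A = A := hg
  rw [h2] at h1
  rw [h1]
  exact conjS_mem ha

/-- elements of the stabilizer normalize `Q A`. -/
theorem conj_mem_Q (hC : Cub adj Q Z) {A : V} {g a : G} (hg : g ∈ St G A) (ha : a ∈ Q A) :
    g * a * g⁻¹ ∈ Q A := by
  have h1 : Q (g • A) = conjS g (Q A) := hC.Q_smul g A
  have h2 : g • A = A := hg
  rw [h2] at h1
  rw [h1]
  exact conjS_mem ha

theorem p7 (hC : Cub adj Q Z) (h4 : P4 adj Z) : P7 adj Z := by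
  intro A B w y hAB hw hyA hyw
  by_contra hyB
  obtain ⟨hwA, hwB, hTw, huniq, hequi⟩ := h4 A B w hAB hw
  have hcen : St G A ≤ centralizer {w} := by
    apply hC.gen hAB (centralizer {w}) y _ hyA hyB
    · rw [mem_centralizer_singleton_iff]; exact hyw
    · intro t ht; rw [mem_centralizer_singleton_iff]; exact hTw t ht
  have hcen' : ∀ s ∈ St G A, s * w * s⁻¹ = w := by
    intro s hs
    have := hcen hs
    rw [mem_centralizer_singleton_iff] at this
    rw [this]; group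
  have hww : w * w = 1 := hC.Ze A w hwA
  obtain ⟨hw1, hall, a, ha, t, ht, hat⟩ := hw
  have htQ : t ∉ Q A := by
    intro htQ
    apply hw1
    rw [← hat, hC.QZ A t htQ a ha, mul_assoc a t, mul_inv_cancel, mul_one, hC.Ze A a ha]
  obtain ⟨C, hAC, hCB⟩ := hC.ex hAB
  obtain ⟨g, hgA, hgB⟩ := hC.trN hAB hAC
  have htA : t ∈ St G A := ht.1
  have ht'A : g * t * g⁻¹ ∈ St G A := mul_mem (mul_mem hgA htA) (inv_mem hgA)
  have ht'C : g * t * g⁻¹ ∈ St G C := by
    show (g * t * g⁻¹) • C = C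
    have h1 : g⁻¹ • C = B := by rw [← hgB, inv_smul_smul]
    have h2 : t • B = B := ht.2
    rw [mul_smul, mul_smul, h1, h2, hgB]
  have ht'Q : g * t * g⁻¹ ∉ Q A := by
    intro h
    apply htQ
    have := conj_mem_Q hC (inv_mem hgA) h
    have e : g⁻¹ * (g * t * g⁻¹) * g⁻¹⁻¹ = t := by group
    rwa [e] at this
  -- action of t and t' on Z A
  have hR : ∀ a' ∈ Z A, t * a' * t⁻¹ = a' ∨ t * a' * t⁻¹ = a' * w := by
    intro a' ha'
    have haa : a' * a' = 1 := hC.Ze A a' ha'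
    rcases hall a' ha' t ht with h | h
    · left
      calc t * a' * t⁻¹ = a' * a' * (t * a' * t⁻¹) := by rw [haa, one_mul]
        _ = a' * (a' * (t * a' * t⁻¹)) := by rw [mul_assoc]
        _ = a' := by rw [h, mul_one]
    · right
      calc t * a' * t⁻¹ = a' * a' * (t * a' * t⁻¹) := by rw [haa, one_mul]
        _ = a' * (a' * (t * a' * t⁻¹)) := by rw [mul_assoc]
        _ = a' * w := by rw [h]
  have hR' : ∀ a' ∈ Z A, (g * t * g⁻¹) * a' * (g * t * g⁻¹)⁻¹ = a' ∨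
      (g * t * g⁻¹) * a' * (g * t * g⁻¹)⁻¹ = a' * w := by
    intro a' ha'
    have h1 : g⁻¹ * a' * g⁻¹⁻¹ ∈ Z A := conj_mem_Z hC (inv_mem hgA) ha'
    have e : (g * t * g⁻¹) * a' * (g * t * g⁻¹)⁻¹ = g * (t * (g⁻¹ * a' * g⁻¹⁻¹) * t⁻¹) * g⁻¹ := by
      group
    rcases hR _ h1 with h | h
    · left; rw [e, h]; group
    · right
      rw [e, h]
      calc g * (g⁻¹ * a' * g⁻¹⁻¹ * w) * g⁻¹ = a' * (g * w * g⁻¹) := by group
        _ = a' * w := by rw [hcen' g hgA]
  set x := t * (g * t * g⁻¹) with hx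
  have hxA : x ∈ St G A := mul_mem htA ht'A
  have hX : ∀ a' ∈ Z A, x * a' * x⁻¹ = a' ∨ x * a' * x⁻¹ = a' * w := by
    intro a' ha'
    have e : x * a' * x⁻¹ = t * ((g * t * g⁻¹) * a' * (g * t * g⁻¹)⁻¹) * t⁻¹ := by
      rw [hx]; group
    have e2 : ∀ u : G, t * (a' * u) * t⁻¹ = (t * a' * t⁻¹) * (t * u * t⁻¹) := by
      intro u; group
    rcases hR' a' ha' with h | h <;> rcases hR a' ha' with h' | h'
    · left; rw [e, h, h']
    · right; rw [e, h, h']
    · right; rw [e, h, e2, h', hcen' t htA]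
    · left; rw [e, h, e2, h', hcen' t htA, mul_assoc, hww, mul_one]
  have hXX : ∀ a' ∈ Z A, (x * x) * a' = a' * (x * x) := by
    intro a' ha'
    have e2 : ∀ u : G, x * (a' * u) * x⁻¹ = (x * a' * x⁻¹) * (x * u * x⁻¹) := by
      intro u; group
    have key : x * (x * a' * x⁻¹) * x⁻¹ = a' := by
      rcases hX a' ha' with h | h
      · rw [h, h]
      · rw [h, e2, h, hcen' x hxA, mul_assoc, hww, mul_one]
    calc (x * x) * a' = (x * (x * a' * x⁻¹) * x⁻¹) * (x * x) := by group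
      _ = a' * (x * x) := by rw [key]
  have hQ : x * x ∈ Q A := hC.CZ A (x * x) (mul_mem hxA hxA) hXX
  exact hC.o3 hAB hAC (Ne.symm hCB) t ht (g * t * g⁻¹) ⟨ht'A, ht'C⟩ htQ ht'Q hQ

end Cfsg.Agent.Lib.Helper23.KS
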